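import Mathlib
import Cfsg.Agent.H639.Sub
import Cfsg.Agent.H639.Klein

/-!
# Perfect isometries for Klein four defect groups
-/

set_option autoImplicit false
set_option linter.unusedSectionVars false

open Cfsg
open scoped ComplexConjugate

namespace Cfsg.Agent.H639

open Cfsg.Agent.Blocks.Local Cfsg.Agent.Characters
open Cfsg.Agent.H649 Cfsg.Agent.H651

universe u

theorem isKleinFour_of_equiv {V W : Type*} [Group V] [Group W] (e : V ≃* W)
    (h : IsKleinFour V) : IsKleinFour W where
  card_four := by rw [← Nat.card_congr e.toEquiv]; exact h.card_four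
  exponent_two := by rw [← Monoid.exponent_eq_of_mulEquiv e]; exact h.exponent_two

variable {G : Type u} [Group G] [Fintype G] {M : Ideal AlgInt} [M.IsPrime]
  {B : Set (IrrCharacter G)}

theorem klein_pi (hM : IsPModular 2 M) {T P : Subgroup G} [Fintype T] (hPT : P ≤ T)
    (hN : Subgroup.normalizer (P : Set G) ≤ T) (hPD : IsDefectGroup 2 M B P)
    (hV : IsKleinFour P) {b : Set (IrrCharacter T)}
    (hbD : IsDefectGroup 2 M b (P.subgroupOf T)) (hb : IsInducedBlock M T b B) :
    ∃ (I : IrrCharacter T → IrrCharacter G) (ε : IrrCharacter T → ℤ),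
      IsPerfectIsometry 2 M b B I ε := by
  have : Fact (Nat.Prime 2) := ⟨Nat.prime_two⟩
  obtain ⟨P', rfl⟩ : ∃ P' : Subgroup T, P'.map T.subtype = P :=
    ⟨P.subgroupOf T, Subgroup.map_subgroupOf_eq_of_le hPT⟩
  have hP' : (P'.map T.subtype).subgroupOf T = P' :=
    Subgroup.comap_map_eq_self_of_injective T.subtype_injective P'
  rw [hP'] at hbD
  have hV' : IsKleinFour P' :=
    isKleinFour_of_equiv (Subgroup.equivMapOfInjective P' T.subtype T.subtype_injective).symm hV
  refine exists_isPerfectIsometry_sub hM hN hbD hb ?_ ?_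
  · intro f hf
    obtain ⟨c, ζ, hF⟩ := klein_full hM hPD hV hf
    exact ⟨c, ζ, hF, (klein_main hF hV).2.2.2⟩
  · intro f hf
    obtain ⟨c, ζ, hF⟩ := klein_full hM hbD hV' hf
    exact ⟨c, ζ, hF, (klein_main hF hV').2.2.2⟩

end Cfsg.Agent.H639
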